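import Mathlib

/-!
# Odd order automorphisms of cyclic and generalized quaternion `2`-groups
-/

set_option autoImplicit false
set_option linter.style.haveILetI false

namespace Cfsg.Agent.Lib.Frobenius.Types

open Subgroup

/-- Odd order automorphisms of a cyclic `2`-group are trivial. -/
theorem aut_cyclic_odd {C : Type*} [Group C] [Finite C] [IsCyclic C] (hC : IsPGroup 2 C)
    (σ : MulAut C) {m : ℕ} (hm : Odd m) (hσ : σ ^ m = 1) : σ = 1 := by
  haveI : Fact (Nat.Prime 2) := ⟨Nat.prime_two⟩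
  obtain ⟨k, hk⟩ := IsPGroup.iff_card.mp hC
  have h1 : Nat.card (MulAut C) = Nat.totient (2 ^ k) := by rw [IsCyclic.card_mulAut, hk]
  have h2 : orderOf σ ∣ m := orderOf_dvd_of_pow_eq_one hσ
  have h3 : orderOf σ ∣ Nat.card (MulAut C) := orderOf_dvd_natCard σ
  have h4 : Nat.totient (2 ^ k) = 2 ^ (k - 1) := by
    rcases Nat.eq_zero_or_pos k with rfl | hk0
    · simp
    · rw [Nat.totient_prime_pow Nat.prime_two hk0]
      simp
  rw [h1, h4] at h3
  have h5 : Nat.Coprime m (2 ^ (k - 1)) := Nat.Coprime.pow_right _ (Nat.coprime_two_right.mpr hm)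
  have h6 := Nat.Coprime.eq_one_of_dvd (Nat.Coprime.coprime_dvd_left h2 h5) h3
  exact orderOf_eq_one_iff.mp h6

/-- An odd order automorphism of a `2`-group fixing a subgroup of index `2` pointwise is trivial. -/
theorem aut_index_two_fix {B : Type*} [Group B] (hB : IsPGroup 2 B) {A : Subgroup B}
    (hA : A.index = 2) (σ : MulAut B) {m : ℕ} (hm : Odd m) (hσ : σ ^ m = 1)
    (hfix : ∀ a ∈ A, σ a = a) : σ = 1 := by
  ext x
  show σ x = x
  by_cases hx : x ∈ A
  · exact hfix x hx
  have hσx : σ x ∉ A := by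
    intro h
    have h1 := hfix _ h
    exact hx ((σ.injective h1) ▸ h)
  have hw : x⁻¹ * σ x ∈ A := by
    rw [Subgroup.mul_mem_iff_of_index_two hA]
    simp [hx, hσx]
  set w := x⁻¹ * σ x with hwdef
  have hσw : σ w = w := hfix w hw
  have hxw : σ x = x * w := by rw [hwdef]; group
  have hpow : ∀ n : ℕ, (σ ^ n) x = x * w ^ n := by
    intro n
    induction n with
    | zero => simp
    | succ n ih =>
      rw [pow_succ', MulAut.mul_apply, ih, map_mul, map_pow, hσw, hxw, pow_succ', mul_assoc]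
  have h1 := hpow m
  rw [hσ] at h1
  have h2 : w ^ m = 1 := by
    have h3 : x * w ^ m = x * 1 := by rw [← h1, mul_one]; rfl
    exact mul_left_cancel h3
  obtain ⟨k, hk⟩ := hB w
  have h3 : orderOf w ∣ m := orderOf_dvd_of_pow_eq_one h2
  have h4 : orderOf w ∣ 2 ^ k := orderOf_dvd_of_pow_eq_one hk
  have h5 : Nat.Coprime m (2 ^ k) := Nat.Coprime.pow_right _ (Nat.coprime_two_right.mpr hm)
  have h6 := Nat.Coprime.eq_one_of_dvd (Nat.Coprime.coprime_dvd_left h3 h5) h4
  rw [orderOf_eq_one_iff] at h6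
  rw [hxw, h6, mul_one]

/-- An odd order automorphism of a `2`-group leaving a cyclic subgroup invariant fixes it
pointwise. -/
theorem aut_cyclic_sub_fix {B : Type*} [Group B] [Finite B] (hB : IsPGroup 2 B) {A : Subgroup B}
    [IsCyclic A] (σ : MulAut B) {m : ℕ} (hm : Odd m) (hσ : σ ^ m = 1)
    (hinv : ∀ a ∈ A, σ a ∈ A) : ∀ a ∈ A, σ a = a := by
  let f : A →* A := (σ.toMonoidHom.comp A.subtype).codRestrict A (fun a => hinv a a.2)
  have hf : Function.Injective f := by
    intro a b hab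
    have h1 : σ (a : B) = σ (b : B) := congrArg Subtype.val hab
    exact Subtype.ext (σ.injective h1)
  let τ : MulAut A := MulEquiv.ofBijective f (Finite.injective_iff_bijective.mp hf)
  have hτ : ∀ (n : ℕ) (a : A), (((τ ^ n) a : A) : B) = (σ ^ n) (a : B) := by
    intro n
    induction n with
    | zero => intro a; rfl
    | succ n ih =>
      intro a
      rw [pow_succ, pow_succ, MulAut.mul_apply, MulAut.mul_apply, ih]
      rfl
  have hτm : τ ^ m = 1 := by
    ext a
    rw [hτ, hσ]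
    rfl
  have hτ1 := aut_cyclic_odd (IsPGroup.to_subgroup hB A) τ hm hτm
  intro a ha
  have h1 := hτ 1 ⟨a, ha⟩
  rw [hτ1, pow_one, pow_one] at h1
  exact h1.symm

section quat

variable {n : ℕ}

theorem isPGroup_quat : IsPGroup 2 (QuaternionGroup (2 ^ n)) := by
  haveI : Fact (Nat.Prime 2) := ⟨Nat.prime_two⟩
  apply IsPGroup.of_card (n := n + 2)
  rw [Nat.card_eq_fintype_card, QuaternionGroup.card]
  ring

/-- Odd order automorphisms of generalized quaternion groups other than `Q₈` are trivial. -/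
theorem aut_quat_odd (hn : n ≠ 1) (σ : MulAut (QuaternionGroup (2 ^ n))) {m : ℕ} (hm : Odd m)
    (hσ : σ ^ m = 1) : σ = 1 := by
  let A : Subgroup (QuaternionGroup (2 ^ n)) := zpowers (QuaternionGroup.a 1)
  have hcardA : Nat.card A = 2 * 2 ^ n := by
    rw [Nat.card_zpowers, QuaternionGroup.orderOf_a_one]
  have hidx : A.index = 2 := by
    have h1 := A.card_mul_index
    rw [hcardA, Nat.card_eq_fintype_card (α := QuaternionGroup (2 ^ n)), QuaternionGroup.card] at h1
    have h2 : 0 < 2 ^ n := by positivity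
    have h3 : 2 ^ n * (2 * A.index) = 2 ^ n * 4 := by nlinarith
    have h4 := Nat.eq_of_mul_eq_mul_left h2 h3
    omega
  have hmem : ∀ i : ZMod (2 * 2 ^ n), (QuaternionGroup.a i : QuaternionGroup (2 ^ n)) ∈ A := by
    intro i
    haveI : NeZero (2 * 2 ^ n) := ⟨by positivity⟩
    have h1 : (QuaternionGroup.a i : QuaternionGroup (2 ^ n)) = QuaternionGroup.a 1 ^ i.val := by
      rw [QuaternionGroup.a_one_pow, ZMod.natCast_zmod_val]
    rw [h1]
    exact pow_mem (mem_zpowers _) _
  have h1 : σ (QuaternionGroup.a 1) ∈ A := by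
    have h2 : orderOf (σ (QuaternionGroup.a 1)) = 2 * 2 ^ n := by
      rw [MulEquiv.orderOf_eq, QuaternionGroup.orderOf_a_one]
    rcases h3 : σ (QuaternionGroup.a 1) with i | i
    · exact hmem i
    · exfalso
      rw [h3, QuaternionGroup.orderOf_xa] at h2
      have h4 : 2 ^ n = 2 ^ 1 := by omega
      exact hn (Nat.pow_right_injective (le_refl 2) h4)
  have hinv : ∀ x ∈ A, σ x ∈ A := by
    intro x hx
    obtain ⟨k, rfl⟩ := Subgroup.mem_zpowers_iff.mp hx
    rw [map_zpow]
    exact zpow_mem h1 _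
  have hfix := aut_cyclic_sub_fix isPGroup_quat σ hm hσ hinv
  exact aut_index_two_fix isPGroup_quat hidx σ hm hσ hfix

end quat

/-- The quaternion group of order `8`. -/
abbrev Q8 : Type := QuaternionGroup 2

theorem q8_pow_four : ∀ x : Q8, x ^ 4 = 1 := by decide

theorem q8_card : Nat.card Q8 = 8 := by
  rw [Nat.card_eq_fintype_card, QuaternionGroup.card]

theorem isPGroup_q8 : IsPGroup 2 Q8 := fun x => ⟨2, q8_pow_four x⟩

/-- An odd order automorphism of `Q₈` fixing an element of order `4` is trivial. -/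
theorem aut_q8_fix (σ : MulAut Q8) {m : ℕ} (hm : Odd m) (hσ : σ ^ m = 1) {t : Q8}
    (ht : t * t ≠ 1) (hfix : σ t = t) : σ = 1 := by
  haveI : Fact (Nat.Prime 2) := ⟨Nat.prime_two⟩
  have h4 : orderOf t = 2 ^ (1 + 1) := by
    apply orderOf_eq_prime_pow
    · simpa [pow_two] using ht
    · simpa using q8_pow_four t
  let A : Subgroup Q8 := zpowers t
  have hidx : A.index = 2 := by
    have h1 := A.card_mul_index
    rw [Nat.card_zpowers, h4, q8_card] at h1
    omega
  refine aut_index_two_fix isPGroup_q8 hidx σ hm hσ ?_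
  intro a ha
  obtain ⟨k, rfl⟩ := Subgroup.mem_zpowers_iff.mp ha
  rw [map_zpow, hfix]

/-- Pairs of images of the generators. -/
def q8Pairs : Finset (Q8 × Q8) :=
  Finset.univ.filter (fun p => p.1 * p.1 ≠ 1 ∧ p.1 * p.1 = p.2 * p.2 ∧ p.2 ≠ p.1 ∧ p.2 ≠ p.1⁻¹)

theorem q8Pairs_card : q8Pairs.card = 24 := by decide +kernel

theorem q8_gen : ∀ g : Q8, ∃ i j : Fin 4, g = QuaternionGroup.a 1 ^ (i : ℕ) * QuaternionGroup.xa 0 ^ (j : ℕ) := by
  decide

theorem card_aut_q8_le : Nat.card (MulAut Q8) ≤ 24 := by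
  classical
  let F : MulAut Q8 → {p // p ∈ q8Pairs} := fun φ => ⟨(φ (QuaternionGroup.a 1), φ (QuaternionGroup.xa 0)), by
    have h0 : (QuaternionGroup.a 1 * QuaternionGroup.a 1 : Q8) = QuaternionGroup.a 2 := by decide
    have h1 : (QuaternionGroup.xa 0 * QuaternionGroup.xa 0 : Q8) = QuaternionGroup.a 2 := by decide
    simp only [q8Pairs, Finset.mem_filter, Finset.mem_univ, true_and]
    refine ⟨?_, ?_, ?_, ?_⟩
    · rw [← map_mul, h0]
      intro h
      exact absurd (φ.map_eq_one_iff.mp h) (by decide)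
    · rw [← map_mul, ← map_mul, h0, h1]
    · intro h
      exact absurd (φ.injective h) (by decide)
    · intro h
      rw [← map_inv] at h
      exact absurd (φ.injective h) (by decide)⟩
  have hF : Function.Injective F := by
    intro φ ψ h
    have h1 : φ (QuaternionGroup.a 1) = ψ (QuaternionGroup.a 1) :=
      congrArg (fun p : {p // p ∈ q8Pairs} => p.1.1) h
    have h2 : φ (QuaternionGroup.xa 0) = ψ (QuaternionGroup.xa 0) :=
      congrArg (fun p : {p // p ∈ q8Pairs} => p.1.2) h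
    ext g
    obtain ⟨i, j, rfl⟩ := q8_gen g
    simp only [map_mul, map_pow, h1, h2]
  have h := Nat.card_le_card_of_injective F hF
  have h2 : Nat.card {p // p ∈ q8Pairs} = 24 := by
    rw [Nat.card_eq_fintype_card, Fintype.card_coe, q8Pairs_card]
  rwa [h2] at h

/-- Automorphisms of `Q₈` of odd prime order `≠ 3` are trivial. -/
theorem aut_q8_prime (σ : MulAut Q8) {q : ℕ} (hq : q.Prime) (hq2 : q ≠ 2) (hq3 : q ≠ 3)
    (hσ : σ ^ q = 1) : σ = 1 := by
  classical
  haveI : Fact q.Prime := ⟨hq⟩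
  have hm : Odd q := hq.odd_of_ne_two hq2
  let π : Equiv.Perm {t : Q8 // t * t ≠ 1} := σ.toEquiv.subtypeEquiv (fun t => by
    show t * t ≠ 1 ↔ σ t * σ t ≠ 1
    rw [← map_mul, Ne, Ne, σ.map_eq_one_iff])
  have hπ : ∀ (n : ℕ) (t : {t : Q8 // t * t ≠ 1}), (((π ^ n) t : {t : Q8 // t * t ≠ 1}) : Q8) = (σ ^ n) (t : Q8) := by
    intro n
    induction n with
    | zero => intro t; rfl
    | succ n ih =>
      intro t
      rw [pow_succ, pow_succ, MulAut.mul_apply, Equiv.Perm.mul_apply, ih]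
      rfl
  have hπq : π ^ q ^ 1 = 1 := by
    rw [pow_one]
    ext t
    rw [hπ, hσ]
    rfl
  have hcard : Fintype.card {t : Q8 // t * t ≠ 1} = 6 := by decide +kernel
  have hdvd : ¬ q ∣ Fintype.card {t : Q8 // t * t ≠ 1} := by
    rw [hcard]
    intro h
    have h1 : q ∣ 2 * 3 := h
    rcases (Nat.Prime.dvd_mul hq).mp h1 with h2 | h2
    · exact hq2 ((Nat.prime_dvd_prime_iff_eq hq Nat.prime_two).mp h2)
    · exact hq3 ((Nat.prime_dvd_prime_iff_eq hq Nat.prime_three).mp h2)
  obtain ⟨t, ht⟩ := Equiv.Perm.exists_fixed_point_of_prime hdvd hπq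
  have h1 : σ (t : Q8) = t := congrArg Subtype.val ht
  exact aut_q8_fix σ hm hσ t.2 h1

end Cfsg.Agent.Lib.Frobenius.Types
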