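import Mathlib

/-!
# Normal subgroups with cyclic Sylow subgroups

`CycSub N`: all `p`-subgroups inside `N` are cyclic. Rigidity: in `A₄, S₄, A₅, S₅` the only normal
subgroup with this property is trivial.
-/

set_option autoImplicit false
set_option linter.style.haveILetI false

namespace Cfsg.Agent.Lib.Frobenius.Types

open Subgroup Equiv

section general

variable {G : Type*} [Group G]

/-- All `p`-subgroups inside `N` are cyclic. -/
def CycSub (N : Subgroup G) : Prop :=
  ∀ (p : ℕ) [Fact p.Prime] (R : Subgroup G), IsPGroup p R → R ≤ N → IsCyclic R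

theorem cycSub_iff [Finite G] (N : Subgroup G) :
    (∀ (p : ℕ) [Fact p.Prime] (P : Sylow p N), IsCyclic P) ↔ CycSub N := by
  constructor
  · intro h p _ R hR hRN
    have hR' : IsPGroup p (R.subgroupOf N) :=
      hR.of_equiv (Subgroup.subgroupOfEquivOfLe hRN).symm
    obtain ⟨P, hP⟩ := hR'.exists_le_sylow
    haveI := h p P
    have h1 : IsCyclic (R.subgroupOf N) := Subgroup.isCyclic_of_le hP
    exact isCyclic_of_surjective _ (Subgroup.subgroupOfEquivOfLe hRN).surjective
  · intro h p _ P
    let e : P ≃* ((P : Subgroup N).map N.subtype : Subgroup G) :=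
      (P : Subgroup N).equivMapOfInjective N.subtype N.subtype_injective
    have hP : IsPGroup p ((P : Subgroup N).map N.subtype : Subgroup G) := P.isPGroup'.of_equiv e
    have hle : (P : Subgroup N).map N.subtype ≤ N := by
      rintro _ ⟨x, -, rfl⟩
      exact x.2
    haveI := h p _ hP hle
    exact isCyclic_of_surjective _ e.symm.surjective

theorem CycSub.mono {N N' : Subgroup G} (h : CycSub N) (hle : N' ≤ N) : CycSub N' :=
  fun p _ R hR hRN => h p R hR (hRN.trans hle)

/-- A Sylow subgroup of a group maps onto any `p`-group quotient. -/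
theorem map_sylow_eq_top {W I : Type*} [Group W] [Finite W] [Group I] {p : ℕ} [Fact p.Prime]
    (hI : IsPGroup p I) {f : W →* I} (hf : Function.Surjective f) (P : Sylow p W) :
    (P : Subgroup W).map f = ⊤ := by
  have h1 := (P.mapSurjective hf).is_maximal' (Q := ⊤) (IsPGroup.to_subgroup hI ⊤) le_top
  exact h1.symm

/-- Images of subgroups with cyclic `p`-subgroups. -/
theorem CycSub.map [Finite G] {T : Type*} [Group T] {N : Subgroup G} (h : CycSub N) (f : G →* T) :
    CycSub (N.map f) := by
  intro p _ R hR hRN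
  let W : Subgroup G := R.comap f ⊓ N
  let g : W →* R := (f.comp W.subtype).codRestrict R (fun x => x.2.1)
  have hg : Function.Surjective g := by
    rintro ⟨y, hy⟩
    obtain ⟨x, hx, rfl⟩ := hRN hy
    exact ⟨⟨x, hy, hx⟩, rfl⟩
  obtain ⟨P⟩ : Nonempty (Sylow p W) := inferInstance
  have h1 := map_sylow_eq_top hR hg P
  let P' : Subgroup G := (P : Subgroup W).map W.subtype
  let e : P ≃* P' := (P : Subgroup W).equivMapOfInjective W.subtype W.subtype_injective
  have hP' : IsPGroup p P' := P.isPGroup'.of_equiv e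
  have hle : P' ≤ N := by
    rintro _ ⟨x, -, rfl⟩
    exact x.2.2
  haveI := h p P' hP' hle
  haveI : IsCyclic P := isCyclic_of_surjective _ e.symm.surjective
  let g' : P →* R := g.comp (P : Subgroup W).subtype
  have hg' : Function.Surjective g' := by
    intro y
    have : y ∈ (P : Subgroup W).map g := by rw [h1]; trivial
    obtain ⟨x, hx, rfl⟩ := this
    exact ⟨⟨x, hx⟩, rfl⟩
  exact isCyclic_of_surjective g' hg'

/-- Two commuting involutions inside `N` with `CycSub N` agree. -/
theorem CycSub.eq_of_inv [Finite G] {N : Subgroup G} (h : CycSub N) {u v : G} (hu : u ∈ N)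
    (hv : v ∈ N) (huu : u * u = 1) (hvv : v * v = 1) (huv : u * v = v * u) (hu1 : u ≠ 1)
    (hv1 : v ≠ 1) : u = v := by
  classical
  let R : Subgroup G := closure {u, v}
  have hRc : ∀ x ∈ R, ∀ y ∈ R, x * y = y * x := by
    have h1 : ∀ x ∈ ({u, v} : Set G), ∀ y ∈ ({u, v} : Set G), x * y = y * x := by
      rintro x (rfl | rfl) y (rfl | rfl)
      · rfl
      · exact huv
      · exact huv.symm
      · rfl
    intro x hx y hy
    have h2 := Subgroup.isMulCommutative_closure h1
    exact congrArg Subtype.val (h2.is_comm.comm (⟨x, hx⟩ : closure {u, v}) ⟨y, hy⟩)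
  have hR2 : ∀ x ∈ R, x * x = 1 := by
    intro x hx
    induction hx using Subgroup.closure_induction with
    | mem x hx =>
      rcases hx with rfl | rfl
      · exact huu
      · exact hvv
    | one => simp
    | mul x y hx hy h1 h2 =>
      calc x * y * (x * y) = x * (y * x) * y := by group
        _ = x * (x * y) * y := by rw [hRc y hy x hx]
        _ = (x * x) * (y * y) := by group
        _ = 1 := by rw [h1, h2, one_mul]
    | inv x hx h1 =>
      calc x⁻¹ * x⁻¹ = (x * x)⁻¹ := by group
        _ = 1 := by rw [h1, inv_one]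
  have hRp : IsPGroup 2 R := fun x => ⟨1, by
    apply Subtype.ext
    simp only [pow_one, pow_two, MulMemClass.coe_mul, OneMemClass.coe_one]
    exact hR2 x x.2⟩
  have hRN : R ≤ N := by
    rw [closure_le]
    rintro x (rfl | rfl)
    · exact hu
    · exact hv
  haveI : Fact (Nat.Prime 2) := ⟨Nat.prime_two⟩
  haveI := h 2 R hRp hRN
  haveI : Fintype R := Fintype.ofFinite R
  by_contra hne
  have huR : u ∈ R := subset_closure (by simp)
  have hvR : v ∈ R := subset_closure (by simp)
  have h3 := IsCyclic.card_pow_eq_one_le (α := R) (n := 2) (by norm_num)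
  have h4 : ({1, ⟨u, huR⟩, ⟨v, hvR⟩} : Finset R) ⊆ Finset.univ.filter (fun a : R => a ^ 2 = 1) := by
    intro x hx
    simp only [Finset.mem_insert, Finset.mem_singleton] at hx
    simp only [Finset.mem_filter, Finset.mem_univ, true_and]
    rw [pow_two]
    apply Subtype.ext
    exact hR2 x x.2
  have h5 := Finset.card_le_card h4
  have h6 : ({1, ⟨u, huR⟩, ⟨v, hvR⟩} : Finset R).card = 3 := by
    rw [Finset.card_eq_three]
    refine ⟨1, ⟨u, huR⟩, ⟨v, hvR⟩, ?_, ?_, ?_, rfl⟩
    · intro h7
      exact hu1 (congrArg Subtype.val h7).symm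
    · intro h7
      exact hv1 (congrArg Subtype.val h7).symm
    · intro h7
      exact hne (congrArg Subtype.val h7)
  omega

end general

/-! ### Rigidity -/

/-- `T` has no nontrivial normal subgroups with cyclic Sylow subgroups. -/
def Rigid (T : Type*) [Group T] : Prop :=
  ∀ M : Subgroup T, M.Normal → CycSub M → M = ⊥

def c3a : Perm (Fin 4) := swap 0 1 * swap 1 2
def c3b : Perm (Fin 4) := swap 0 1 * swap 1 3
def v1 : Perm (Fin 4) := swap 0 1 * swap 2 3
def v2 : Perm (Fin 4) := swap 0 2 * swap 1 3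

set_option maxRecDepth 100000 in
theorem a4_wit : ∀ g : Perm (Fin 4), Perm.sign g = 1 → g ≠ 1 → ∃ c ∈ [c3a, c3b, v1, v2],
    ∃ d ∈ [c3a, c3b],
    (g * c * g⁻¹ * c⁻¹) * (g * c * g⁻¹ * c⁻¹) = 1 ∧
    (d * (g * c * g⁻¹ * c⁻¹) * d⁻¹) * (d * (g * c * g⁻¹ * c⁻¹) * d⁻¹) = 1 ∧
    (g * c * g⁻¹ * c⁻¹) * (d * (g * c * g⁻¹ * c⁻¹) * d⁻¹) =
      (d * (g * c * g⁻¹ * c⁻¹) * d⁻¹) * (g * c * g⁻¹ * c⁻¹) ∧
    (g * c * g⁻¹ * c⁻¹) ≠ 1 ∧ (g * c * g⁻¹ * c⁻¹) ≠ (d * (g * c * g⁻¹ * c⁻¹) * d⁻¹) := by
  decide +kernel

theorem rigid_a4 : Rigid (alternatingGroup (Fin 4)) := by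
  intro M hM hc
  rw [eq_bot_iff]
  intro g hg
  rw [Subgroup.mem_bot]
  by_contra hg1
  have hg1' : (g : Perm (Fin 4)) ≠ 1 := fun h => hg1 (Subtype.ext h)
  have hgs : Perm.sign (g : Perm (Fin 4)) = 1 := g.2
  obtain ⟨c, hcL, d, hdL, h1, h2, h3, h4, h5⟩ := a4_wit _ hgs hg1'
  have hcs : Perm.sign c = 1 := by
    simp only [List.mem_cons, List.not_mem_nil, or_false] at hcL
    rcases hcL with rfl | rfl | rfl | rfl <;> decide
  have hds : Perm.sign d = 1 := by
    simp only [List.mem_cons, List.not_mem_nil, or_false] at hdL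
    rcases hdL with rfl | rfl <;> decide
  let c' : alternatingGroup (Fin 4) := ⟨c, hcs⟩
  let d' : alternatingGroup (Fin 4) := ⟨d, hds⟩
  have hu : g * c' * g⁻¹ * c'⁻¹ ∈ M := by
    have h6 := hM.conj_mem _ (inv_mem hg) c'
    have h7 := mul_mem hg h6
    convert h7 using 1
    group
  have hv := hM.conj_mem _ hu d'
  have := hc.eq_of_inv hu hv (Subtype.ext h1) (Subtype.ext h2) (Subtype.ext h3)
    (fun h => h4 (congrArg Subtype.val h))
    (fun h => h4 (by
      have h8 : d * (g * c * g⁻¹ * c⁻¹) * d⁻¹ = 1 := congrArg Subtype.val h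
      have h9 : d * (g * c * g⁻¹ * c⁻¹) = d := by
        calc d * (g * c * g⁻¹ * c⁻¹) = (d * (g * c * g⁻¹ * c⁻¹) * d⁻¹) * d := by group
          _ = d := by rw [h8, one_mul]
      exact mul_eq_left.mp h9))
  exact h5 (congrArg Subtype.val this)

theorem rigid_a5 : Rigid (alternatingGroup (Fin 5)) := by
  intro M hM hc
  haveI : IsSimpleGroup (alternatingGroup (Fin 5)) := alternatingGroup.isSimpleGroup (by simp)
  rcases hM.eq_bot_or_eq_top with h | h
  · exact h
  · exfalso
    subst h
    let u : alternatingGroup (Fin 5) := ⟨swap 0 1 * swap 2 3, Perm.mem_alternatingGroup.2 (by decide)⟩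
    let v : alternatingGroup (Fin 5) := ⟨swap 0 2 * swap 1 3, Perm.mem_alternatingGroup.2 (by decide)⟩
    have huv : u = v := hc.eq_of_inv (mem_top _) (mem_top _) (by decide) (by decide) (by decide)
      (by decide) (by decide)
    exact absurd huv (by decide)

/-- A normal subgroup of the symmetric group meeting the alternating group trivially is trivial. -/
theorem eq_bot_of_subgroupOf_alt {α : Type*} [Fintype α] [DecidableEq α] (h4 : 3 ≤ Nat.card α)
    {M : Subgroup (Perm α)} (hM : M.Normal) (hbot : M.subgroupOf (alternatingGroup α) = ⊥) :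
    M = ⊥ := by
  rw [eq_bot_iff]
  intro g hg
  rw [Subgroup.mem_bot]
  have hcent : g ∈ center (Perm α) := by
    rw [Subgroup.mem_center_iff]
    intro c
    have h1 : g * c * g⁻¹ * c⁻¹ ∈ M := by
      have h6 := hM.conj_mem _ (inv_mem hg) c
      have h7 := mul_mem hg h6
      convert h7 using 1
      group
    have h2 : Perm.sign (g * c * g⁻¹ * c⁻¹) = 1 := by
      simp only [map_mul, map_inv]
      have h3 := mul_comm (Perm.sign g) (Perm.sign c)
      rw [h3]
      group
    have h3 : (⟨_, h2⟩ : alternatingGroup α) ∈ M.subgroupOf (alternatingGroup α) := h1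
    rw [hbot, Subgroup.mem_bot] at h3
    have h5 : g * c * g⁻¹ * c⁻¹ = 1 := congrArg Subtype.val h3
    have h6 : g * c = c * g := by
      calc g * c = (g * c * g⁻¹ * c⁻¹) * (c * g) := by group
        _ = c * g := by rw [h5, one_mul]
    exact h6.symm
  rw [Subgroup.mem_center_iff] at hcent
  ext a
  by_contra hne
  have hne' : g a ≠ a := hne
  obtain ⟨b, hb1, hb2⟩ : ∃ b, b ≠ a ∧ b ≠ g a := by
    have h5 : ({a, g a} : Finset α).card < Fintype.card α := by
      have h6 := Finset.card_le_two (a := a) (b := g a)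
      rw [Nat.card_eq_fintype_card] at h4
      omega
    obtain ⟨b, hb⟩ := Finset.exists_mem_notMem_of_card_lt_card (s := {a, g a}) (t := Finset.univ)
      (by simpa using h5)
    simp only [Finset.mem_univ, Finset.mem_insert, Finset.mem_singleton, not_or, true_and] at hb
    exact ⟨b, hb.1, hb.2⟩
  have h7 := congrArg (fun σ : Perm α => σ a) (hcent (swap a b))
  simp only [Perm.coe_mul, Function.comp_apply, swap_apply_left] at h7
  rw [swap_apply_of_ne_of_ne hne' hb2.symm] at h7
  exact hb1 (g.injective h7.symm)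

/-- The symmetric group inherits rigidity from the alternating group. -/
theorem rigid_perm {α : Type*} [Fintype α] [DecidableEq α] (h4 : 4 ≤ Nat.card α)
    (h : Rigid (alternatingGroup α)) : Rigid (Perm α) := by
  intro M hM hc
  have hM' : (M.subgroupOf (alternatingGroup α)).Normal := hM.subgroupOf _
  have hc' : CycSub (M.subgroupOf (alternatingGroup α)) := by
    intro p _ R hR hRM
    let e : R ≃* (R.map (alternatingGroup α).subtype : Subgroup (Perm α)) :=
      R.equivMapOfInjective _ (alternatingGroup α).subtype_injective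
    have hR' := hR.of_equiv e
    have hle : R.map (alternatingGroup α).subtype ≤ M := by
      rintro _ ⟨x, hx, rfl⟩
      exact hRM hx
    haveI := hc p _ hR' hle
    exact isCyclic_of_surjective _ e.symm.surjective
  exact eq_bot_of_subgroupOf_alt (by omega) hM (h _ hM' hc')

theorem rigid_s4 : Rigid (Perm (Fin 4)) := rigid_perm (by simp) rigid_a4

theorem rigid_s5 : Rigid (Perm (Fin 5)) := rigid_perm (by simp) rigid_a5

/-- The Klein four group. -/
theorem not_cycSub_v4 : ¬ CycSub (⊤ : Subgroup (DihedralGroup 2)) := by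
  intro hc
  have huv : (DihedralGroup.r 1 : DihedralGroup 2) = DihedralGroup.sr 0 :=
    hc.eq_of_inv (mem_top _) (mem_top _) (by decide) (by decide) (by decide) (by decide) (by decide)
  exact absurd huv (by decide)

end Cfsg.Agent.Lib.Frobenius.Types
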