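import Mathlib
import Cfsg.Agent.Lib.Frobenius.Types.Basic
import Cfsg.Agent.Lib.Frobenius.Zass.Act

/-!
# Uniqueness of the normal subgroup in the structure theorem for Frobenius complements
-/

set_option autoImplicit false
set_option linter.style.haveILetI false

namespace Cfsg.Agent.Lib.Frobenius.Types

open Subgroup Equiv Cfsg.Agent.Lib.Frobenius.Zass

universe u

theorem v4_sq (x : DihedralGroup 2) : x * x = 1 := by
  revert x
  decide

theorem isPGroup_v4 : IsPGroup 2 (DihedralGroup 2) :=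
  fun x => ⟨1, by rw [pow_one, pow_two]; exact v4_sq x⟩

theorem card_v4 : Nat.card (DihedralGroup 2) = 4 := by
  rw [DihedralGroup.nat_card]

theorem not_isCyclic_v4 : ¬ IsCyclic (DihedralGroup 2) := by
  intro h
  apply not_cycSub_v4
  intro p _ R _ _
  exact Subgroup.isCyclic R

section quat

variable {n : ℕ}

/-- The kernel of a surjection from a generalized quaternion group onto the Klein group. -/
theorem quat_ker_eq (f : QuaternionGroup (2 ^ n) →* DihedralGroup 2)
    (hf : Function.Surjective f) :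
    f.ker = zpowers (QuaternionGroup.a 2 : QuaternionGroup (2 ^ n)) := by
  haveI : NeZero (2 ^ n) := ⟨by positivity⟩
  symm
  have hle : zpowers (QuaternionGroup.a 2 : QuaternionGroup (2 ^ n)) ≤ f.ker := by
    rw [Subgroup.zpowers_le, MonoidHom.mem_ker]
    have h1 : (QuaternionGroup.a 2 : QuaternionGroup (2 ^ n)) =
        QuaternionGroup.a 1 * QuaternionGroup.a 1 := by
      rw [QuaternionGroup.a_mul_a]
      norm_num
    rw [h1, map_mul]
    exact v4_sq _
  apply Subgroup.eq_of_le_of_card_ge hle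
  have h2 : orderOf (QuaternionGroup.a 2 : QuaternionGroup (2 ^ n)) = 2 ^ n := by
    have h3 : (QuaternionGroup.a 2 : QuaternionGroup (2 ^ n)) = QuaternionGroup.a 1 ^ 2 := by
      rw [QuaternionGroup.a_one_pow]
      norm_num
    rw [h3, orderOf_pow', QuaternionGroup.orderOf_a_one]
    · have : Nat.gcd (2 * 2 ^ n) 2 = 2 := Nat.gcd_eq_right (dvd_mul_right 2 _)
      rw [this]
      omega
    · norm_num
  rw [Nat.card_zpowers, h2]
  have h4 := (f.ker).card_mul_index
  have h5 : f.ker.index = 4 := by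
    rw [Subgroup.index_ker, MonoidHom.range_eq_top.mpr hf]
    simp
  rw [h5, Nat.card_eq_fintype_card (α := QuaternionGroup (2 ^ n)), QuaternionGroup.card] at h4
  omega

end quat

variable {G : Type u} [Group G] [Finite G]

/-- A rigid quotient: its kernel contains all normal subgroups with cyclic Sylows. -/
theorem le_ker_of_rigid {T : Type*} [Group T] (hT : Rigid T) {f : G →* T}
    (hf : Function.Surjective f) {N : Subgroup G} (hN : N.Normal) (hc : CycSub N) : N ≤ f.ker := by
  have h1 := hT (N.map f) (hN.map f hf) (hc.map f)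
  rwa [Subgroup.map_eq_bot_iff] at h1

/-- Kernels of Klein quotients: one inclusion. -/
theorem ker_le_of_v4 (hA : FpfAct G) {f₁ f₂ : G →* DihedralGroup 2}
    (h₁ : Function.Surjective f₁) (h₂ : Function.Surjective f₂) : f₂.ker ≤ f₁.ker := by
  classical
  haveI : Fact (Nat.Prime 2) := ⟨Nat.prime_two⟩
  obtain ⟨Q⟩ : Nonempty (Sylow 2 G) := inferInstance
  have hsurj : ∀ f : G →* DihedralGroup 2, Function.Surjective f →
      Function.Surjective (f.comp (Q : Subgroup G).subtype) := by
    intro f hf y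
    have h1 := map_sylow_eq_top isPGroup_v4 hf Q
    have : y ∈ (Q : Subgroup G).map f := by rw [h1]; trivial
    obtain ⟨x, hx, rfl⟩ := this
    exact ⟨⟨x, hx⟩, rfl⟩
  have hQq : ∃ n : ℕ, Nonempty ((Q : Subgroup G) ≃* QuaternionGroup (2 ^ n)) := by
    rcases hA.sylow 2 Q Q.isPGroup' with h | ⟨-, h⟩
    · exfalso
      exact not_isCyclic_v4 (isCyclic_of_surjective _ (hsurj f₁ h₁))
    · exact h
  obtain ⟨n, ⟨e⟩⟩ := hQq
  have hQker : ∀ x ∈ (Q : Subgroup G), f₂ x = 1 → f₁ x = 1 := by
    intro x hx hx2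
    have hs : ∀ f : G →* DihedralGroup 2, Function.Surjective f →
        Function.Surjective ((f.comp (Q : Subgroup G).subtype).comp e.symm.toMonoidHom) :=
      fun f hf => (hsurj f hf).comp e.symm.surjective
    have h3 := (quat_ker_eq _ (hs f₁ h₁)).trans (quat_ker_eq _ (hs f₂ h₂)).symm
    have h4 : e ⟨x, hx⟩ ∈ ((f₂.comp (Q : Subgroup G).subtype).comp e.symm.toMonoidHom).ker := by
      rw [MonoidHom.mem_ker]
      simpa using hx2
    rw [← h3, MonoidHom.mem_ker] at h4
    simpa using h4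
  -- all `2`-elements in the kernel of `f₂`
  let W : Subgroup G := f₂.ker
  let g : W →* (f₁.comp W.subtype).range := (f₁.comp W.subtype).rangeRestrict
  have hg : Function.Surjective g := MonoidHom.rangeRestrict_surjective _
  have hI : IsPGroup 2 (f₁.comp W.subtype).range := IsPGroup.to_subgroup isPGroup_v4 _
  obtain ⟨P⟩ : Nonempty (Sylow 2 W) := inferInstance
  have h1 := map_sylow_eq_top hI hg P
  have hPk : ∀ x ∈ (P : Subgroup W), f₁ (x : G) = 1 := by
    intro x hx
    let P' : Subgroup G := (P : Subgroup W).map W.subtype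
    have hP' : IsPGroup 2 P' :=
      P.isPGroup'.of_equiv ((P : Subgroup W).equivMapOfInjective W.subtype W.subtype_injective)
    obtain ⟨S, hS⟩ := hP'.exists_le_sylow
    obtain ⟨h, hh⟩ := MulAction.exists_smul_eq G S Q
    have hxS : (x : G) ∈ (S : Subgroup G) := hS ⟨x, hx, rfl⟩
    have hxQ : MulAut.conj h (x : G) ∈ (Q : Subgroup G) := by
      rw [← hh]
      exact Subgroup.smul_mem_pointwise_smul _ _ _ hxS
    have hx2 : f₂ (MulAut.conj h (x : G)) = 1 := by
      have h2 : f₂ (x : G) = 1 := x.2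
      simp [MulAut.conj_apply, h2]
    have h5 := hQker _ hxQ hx2
    simp only [MulAut.conj_apply, map_mul, map_inv] at h5
    have h6 : f₁ (x : G) = (f₁ h)⁻¹ * (f₁ h * f₁ (x : G) * (f₁ h)⁻¹) * f₁ h := by group
    rw [h6, h5]
    group
  intro x hx
  rw [MonoidHom.mem_ker]
  have h2 : g ⟨x, hx⟩ ∈ (P : Subgroup W).map g := by rw [h1]; trivial
  obtain ⟨y, hy, hyx⟩ := h2
  have h3 : f₁ (y : G) = f₁ x := congrArg Subtype.val hyx
  rw [← h3]
  exact hPk y hy

/-- The shape of the quotient in the theorem. -/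
def Admissible (N : Subgroup G) : Prop :=
  N = ⊤ ∨
    (∃ f : G →* DihedralGroup 2, Function.Surjective f ∧ f.ker = N) ∨
    (∃ f : G →* alternatingGroup (Fin 4), Function.Surjective f ∧ f.ker = N) ∨
    (∃ f : G →* Equiv.Perm (Fin 4), Function.Surjective f ∧ f.ker = N) ∨
    (∃ f : G →* alternatingGroup (Fin 5), Function.Surjective f ∧ f.ker = N) ∨
    (∃ f : G →* Equiv.Perm (Fin 5), Function.Surjective f ∧ f.ker = N)

/-- Rigid shapes. -/
def RigidQuot (N : Subgroup G) : Prop :=
  ∃ (T : Type) (_ : Group T) (_ : Finite T), Rigid T ∧ 5 ≤ Nat.card T ∧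
    ∃ f : G →* T, Function.Surjective f ∧ f.ker = N

theorem admissible_cases {N : Subgroup G} (h : Admissible N) :
    N = ⊤ ∨ (∃ f : G →* DihedralGroup 2, Function.Surjective f ∧ f.ker = N) ∨ RigidQuot N := by
  rcases h with h | h | h | h | h | h
  · exact Or.inl h
  · exact Or.inr (Or.inl h)
  · exact Or.inr (Or.inr ⟨alternatingGroup (Fin 4), inferInstance, inferInstance, rigid_a4, by
      rw [nat_card_alternatingGroup]
      simp [Nat.factorial], h⟩)
  · exact Or.inr (Or.inr ⟨Equiv.Perm (Fin 4), inferInstance, inferInstance, rigid_s4, by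
      rw [Nat.card_perm]
      simp [Nat.factorial], h⟩)
  · exact Or.inr (Or.inr ⟨alternatingGroup (Fin 5), inferInstance, inferInstance, rigid_a5, by
      rw [nat_card_alternatingGroup]
      simp [Nat.factorial], h⟩)
  · exact Or.inr (Or.inr ⟨Equiv.Perm (Fin 5), inferInstance, inferInstance, rigid_s5, by
      rw [Nat.card_perm]
      simp [Nat.factorial], h⟩)

/-- **Uniqueness**. -/
theorem admissible_unique (hA : FpfAct G) {N₁ N₂ : Subgroup G} (hn₁ : N₁.Normal) (hn₂ : N₂.Normal)
    (hc₁ : CycSub N₁) (hc₂ : CycSub N₂) (a₁ : Admissible N₁) (a₂ : Admissible N₂) : N₁ = N₂ := by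
  have hK : ∀ {N N' : Subgroup G}, N = ⊤ → CycSub N → N' = N' →
      (∃ f : G →* DihedralGroup 2, Function.Surjective f ∧ f.ker = N') → False := by
    rintro N N' rfl hc - ⟨f, hf, -⟩
    apply not_cycSub_v4
    have h1 := hc.map f
    rwa [← MonoidHom.range_eq_map, MonoidHom.range_eq_top.mpr hf] at h1
  have hR : ∀ {N N' : Subgroup G}, N.Normal → CycSub N →
      RigidQuot N' → N ≤ N' := by
    rintro N N' hN hc ⟨T, _, _, hT, -, f, hf, rfl⟩
    exact le_ker_of_rigid hT hf hN hc
  have hKR : ∀ {N N' : Subgroup G},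
      (∃ f : G →* DihedralGroup 2, Function.Surjective f ∧ f.ker = N) → N.Normal → CycSub N →
      RigidQuot N' → False := by
    rintro N N' ⟨f, hf, rfl⟩ hN hc ⟨T, _, _, hT, h5, f', hf', rfl⟩
    have h1 := le_ker_of_rigid hT hf' hN hc
    have h2 := Subgroup.index_dvd_of_le h1
    rw [Subgroup.index_ker, Subgroup.index_ker, MonoidHom.range_eq_top.mpr hf,
      MonoidHom.range_eq_top.mpr hf', Subgroup.card_top, Subgroup.card_top, card_v4] at h2
    have := Nat.le_of_dvd (by norm_num) h2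
    omega
  rcases admissible_cases a₁ with h1 | h1 | h1 <;> rcases admissible_cases a₂ with h2 | h2 | h2
  · rw [h1, h2]
  · exact (hK h1 hc₁ rfl h2).elim
  · exact le_antisymm (hR hn₁ hc₁ h2) (h1 ▸ le_top)
  · exact (hK h2 hc₂ rfl h1).elim
  · obtain ⟨f₁, hf₁, rfl⟩ := h1
    obtain ⟨f₂, hf₂, rfl⟩ := h2
    exact le_antisymm (ker_le_of_v4 hA hf₂ hf₁) (ker_le_of_v4 hA hf₁ hf₂)
  · exact (hKR h1 hn₁ hc₁ h2).elim
  · exact le_antisymm (h2 ▸ le_top) (hR hn₂ hc₂ h1)
  · exact (hKR h2 hn₂ hc₂ h1).elim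
  · exact le_antisymm (hR hn₁ hc₁ h2) (hR hn₂ hc₂ h1)

end Cfsg.Agent.Lib.Frobenius.Types
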