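import Mathlib
import Cfsg.Agent.Lib.Frobenius.Types.Uniq
import Cfsg.Agent.Lib.Frobenius.Zass.Struct
import Cfsg.Agent.S0253

/-!
# Existence in the non-solvable case
-/

set_option autoImplicit false
set_option linter.style.haveILetI false

namespace Cfsg.Agent.Lib.Frobenius.Types

open Subgroup Equiv Cfsg.Agent.Lib.Frobenius.Zass
open scoped MatrixGroups

universe u

/-- A homomorphism to `Perm α` whose range has index at most two. -/
theorem surj_or_alt {G : Type*} [Group G] {α : Type*} [Fintype α] [DecidableEq α]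
    (Ψ : G →* Perm α) (h : Ψ.range.index = 1 ∨ Ψ.range.index = 2) :
    Function.Surjective Ψ ∨
      ∃ f : G →* alternatingGroup α, Function.Surjective f ∧ f.ker = Ψ.ker := by
  rcases h with h | h
  · left
    exact MonoidHom.range_eq_top.mp (Subgroup.index_eq_one.mp h)
  · right
    have h1 : Ψ.range = alternatingGroup α := Equiv.Perm.eq_alternatingGroup_of_index_eq_two h
    let f : G →* alternatingGroup α := Ψ.codRestrict _ (fun g => by
      rw [← h1]
      exact ⟨g, rfl⟩)
    refine ⟨f, ?_, ?_⟩
    · rintro ⟨y, hy⟩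
      rw [← h1] at hy
      obtain ⟨g, rfl⟩ := hy
      exact ⟨g, rfl⟩
    · ext g
      simp only [MonoidHom.mem_ker]
      constructor
      · intro h2
        exact congrArg Subtype.val h2
      · intro h2
        exact Subtype.ext h2

/-- The conjugation action of `S₅` on `A₅` is faithful. -/
theorem conjNormal_injective_five :
    Function.Injective (MulAut.conjNormal (H := alternatingGroup (Fin 5)) :
      Perm (Fin 5) →* MulAut (alternatingGroup (Fin 5))) := by
  rw [← MonoidHom.ker_eq_bot_iff]
  apply eq_bot_of_subgroupOf_alt (by simp) (MonoidHom.normal_ker _)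
  rw [eq_bot_iff]
  rintro ⟨g, hg⟩ hg1
  rw [Subgroup.mem_bot]
  have h1 : g ∈ (MulAut.conjNormal (H := alternatingGroup (Fin 5)) :
      Perm (Fin 5) →* MulAut (alternatingGroup (Fin 5))).ker := hg1
  rw [MonoidHom.mem_ker] at h1
  have h2 : (⟨g, hg⟩ : alternatingGroup (Fin 5)) ∈ center (alternatingGroup (Fin 5)) := by
    rw [Subgroup.mem_center_iff]
    intro c
    have h3 := congrArg (fun φ : MulAut (alternatingGroup (Fin 5)) => ((φ c : alternatingGroup (Fin 5)) : Perm (Fin 5))) h1
    have h4 : g * (c : Perm (Fin 5)) * g⁻¹ = c := by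
      simpa [MulAut.conjNormal_apply] using h3
    apply Subtype.ext
    show (c : Perm (Fin 5)) * g = g * c
    calc (c : Perm (Fin 5)) * g = (g * (c : Perm (Fin 5)) * g⁻¹) * g := by rw [h4]
      _ = g * c := by group
  rw [alternatingGroup.center_eq_bot (by simp), Subgroup.mem_bot] at h2
  exact h2

/-- `Aut(PSL₂(5)) ≅ S₅`. -/
theorem exists_aut_psl_equiv : Nonempty (MulAut (PSL(2, ZMod 5)) ≃* Perm (Fin 5)) := by
  haveI := fact_prime_five
  obtain ⟨e5⟩ := Cfsg.Agent.S0253.result (F := ZMod 5) (by simp [ZMod.card])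
  let c : Perm (Fin 5) →* MulAut (alternatingGroup (Fin 5)) := MulAut.conjNormal
  have hc : Function.Bijective c := by
    rw [Nat.bijective_iff_injective_and_card]
    refine ⟨conjNormal_injective_five, ?_⟩
    rw [Nat.card_congr (MulAut.congr e5).symm.toEquiv, card_aut_psl25, Nat.card_perm]
    simp [Nat.factorial]
  exact ⟨(MulAut.congr e5).trans (MulEquiv.ofBijective c hc).symm⟩

variable {G : Type u} [Group G] [Finite G]

/-- **Existence** in the non-solvable case. -/
theorem exists_adm_nonsolvable (hA : FpfAct G) (hns : ¬ Group.IsSolvable G) :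
    ∃ N : Subgroup G, N.Normal ∧ CycSub N ∧ Admissible N := by
  classical
  obtain ⟨S, M, hSn, e, θ, hperf, hM, hdec, hθ, hker, hidx⟩ := exists_struct hA hns
  haveI := hSn
  refine ⟨θ.ker, MonoidHom.normal_ker θ, ?_, ?_⟩
  · intro p _ R hR hRN
    rcases hA.sylow p R hR with h | ⟨rfl, -⟩
    · exact h
    · have hle : R ≤ zpowers (zOf e) := by
        intro t ht
        obtain ⟨k, hk⟩ := hR ⟨t, ht⟩
        have hk' : t ^ 2 ^ k = 1 := congrArg Subtype.val hk
        rcases two_elem_cent hA e k t (hker ▸ hRN ht) hk' with rfl | rfl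
        · exact one_mem _
        · exact mem_zpowers _
      exact Subgroup.isCyclic_of_le hle
  · obtain ⟨E⟩ := exists_aut_psl_equiv
    let Ψ : G →* Perm (Fin 5) := E.toMonoidHom.comp θ
    have hΨker : Ψ.ker = θ.ker := by
      ext g
      simp only [MonoidHom.mem_ker, Ψ, MonoidHom.comp_apply]
      exact E.map_eq_one_iff
    have h60 : Nat.card (S.map Ψ) = 60 := by
      have h1 : S.map Ψ = (S.map θ).map E.toMonoidHom := (Subgroup.map_map _ _ _).symm
      rw [h1, Subgroup.card_map_of_injective E.injective, card_map_theta hA e hker]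
    have hle : S.map Ψ ≤ Ψ.range := by
      rintro _ ⟨s, -, rfl⟩
      exact ⟨s, rfl⟩
    have h1 := Subgroup.card_dvd_of_le hle
    rw [h60] at h1
    have h2 := Ψ.range.card_mul_index
    rw [Nat.card_perm] at h2
    have h3 : Ψ.range.index = 1 ∨ Ψ.range.index = 2 := by
      obtain ⟨k, hk⟩ := h1
      rw [hk] at h2
      simp only [Nat.card_eq_fintype_card, Fintype.card_fin, Nat.factorial] at h2
      have h4 : k * Ψ.range.index = 2 := by
        have : 60 * (k * Ψ.range.index) = 60 * 2 := by
          simp only [Nat.succ_eq_add_one] at h2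
          nlinarith
        exact Nat.eq_of_mul_eq_mul_left (by norm_num) this
      have h5 : Ψ.range.index ∣ 2 := ⟨k, by rw [← h4, mul_comm]⟩
      exact (Nat.dvd_prime Nat.prime_two).mp h5
    rcases surj_or_alt Ψ h3 with h4 | ⟨f, hf, hfk⟩
    · exact Or.inr (Or.inr (Or.inr (Or.inr (Or.inr ⟨Ψ, h4, hΨker⟩))))
    · exact Or.inr (Or.inr (Or.inr (Or.inr (Or.inl ⟨f, hf, hfk.trans hΨker⟩))))

end Cfsg.Agent.Lib.Frobenius.Types
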