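import Mathlib
import Cfsg.Agent.Lib.Frobenius.Types.AutQuat

/-!
# Groups with a self-centralizing normal `Q₈` which is `O₂`

If `B ≃ Q₈` is normal in `X`, `C_X(B) ≤ B`, `B` contains all normal `2`-subgroups, and `X` is not a
`2`-group, then `X` acts on `4` points with kernel `Z(B)` and image `A₄` or `S₄`.
-/

set_option autoImplicit false
set_option linter.style.haveILetI false

namespace Cfsg.Agent.Lib.Frobenius.Types

open Subgroup Equiv

theorem q8_center : ∀ x : Q8, (∀ y : Q8, x * y = y * x) → x = 1 ∨ x = QuaternionGroup.a 2 := by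
  decide

theorem q8_sq : ∀ x : Q8, x * x = 1 → x = 1 ∨ x = QuaternionGroup.a 2 := by
  decide

theorem q8_a2_central : ∀ y : Q8, (QuaternionGroup.a 2 : Q8) * y = y * QuaternionGroup.a 2 := by
  decide

theorem mem_zpowers_of_sq {X : Type*} [Group X] {z x : X} (hz : z * z = 1) :
    x ∈ zpowers z ↔ x = 1 ∨ x = z := by
  constructor
  · intro hx
    obtain ⟨k, rfl⟩ := Subgroup.mem_zpowers_iff.mp hx
    rcases Int.even_or_odd' k with ⟨j, rfl | rfl⟩
    · left
      rw [zpow_mul, zpow_two, hz, one_zpow]
    · right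
      rw [zpow_add, zpow_mul, zpow_two, hz, one_zpow, one_mul, zpow_one]
  · rintro (rfl | rfl)
    · exact one_mem _
    · exact mem_zpowers _

variable {X : Type*} [Group X] [Finite X]

/-- **The structure theorem** in the `Q₈` case. -/
theorem q8_structure (B : Subgroup X) [hBn : B.Normal] (e : B ≃* Q8)
    (hC : centralizer (B : Set X) ≤ B)
    (hO : ∀ K : Subgroup X, K.Normal → IsPGroup 2 K → K ≤ B)
    (h2 : ¬ IsPGroup 2 X) :
    ∃ φ : X →* Perm (Fin 4), IsCyclic φ.ker ∧ (φ.range.index = 1 ∨ φ.range.index = 2) := by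
  classical
  haveI : Fact (Nat.Prime 2) := ⟨Nat.prime_two⟩
  haveI : Fact (Nat.Prime 3) := ⟨Nat.prime_three⟩
  let α : X →* MulAut Q8 := (MulAut.congr e).toMonoidHom.comp MulAut.conjNormal
  have hα : ∀ (g : X) (b : B), α g (e b) = e (MulAut.conjNormal g b) := by
    intro g b
    show e (MulAut.conjNormal g (e.symm (e b))) = _
    rw [e.symm_apply_apply]
  have hαc : ∀ (g : X) (b : B), ((MulAut.conjNormal g b : B) : X) = g * b * g⁻¹ :=
    fun g b => MulAut.conjNormal_apply g b
  -- the central involution
  let zB : B := e.symm (QuaternionGroup.a 2)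
  let z : X := zB
  have hez : e zB = QuaternionGroup.a 2 := e.apply_symm_apply _
  have hzzB : zB * zB = 1 := by
    apply e.injective
    rw [map_mul, hez, map_one]
    decide
  have hzz : z * z = 1 := congrArg Subtype.val hzzB
  have hzB1 : zB ≠ 1 := by
    intro h
    have h1 := hez
    rw [h, map_one] at h1
    exact absurd h1 (by decide)
  have hz1 : z ≠ 1 := fun h => hzB1 (Subtype.ext h)
  have hmemker : ∀ g, g ∈ α.ker ↔ g ∈ centralizer (B : Set X) := by
    intro g
    rw [MonoidHom.mem_ker, Subgroup.mem_centralizer_iff]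
    constructor
    · intro h b hb
      have h1 := hα g ⟨b, hb⟩
      rw [h] at h1
      have h2 : (⟨b, hb⟩ : B) = MulAut.conjNormal g ⟨b, hb⟩ := e.injective h1
      have h3 : b = g * b * g⁻¹ := by
        have h4 := congrArg Subtype.val h2
        rwa [hαc] at h4
      calc b * g = (g * b * g⁻¹) * g := by rw [← h3]
        _ = g * b := by group
    · intro h
      ext x
      show α g x = x
      obtain ⟨b, rfl⟩ := e.surjective x
      rw [hα]
      congr 1
      apply Subtype.ext
      rw [hαc]
      have h1 := h b b.2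
      calc g * b * g⁻¹ = (b * g) * g⁻¹ := by rw [h1]
        _ = b := by group
  have hzcent : z ∈ centralizer (B : Set X) := by
    rw [Subgroup.mem_centralizer_iff]
    intro b hb
    have h1 : (⟨b, hb⟩ : B) * zB = zB * ⟨b, hb⟩ := by
      apply e.injective
      rw [map_mul, map_mul, hez]
      exact (q8_a2_central _).symm
    exact congrArg Subtype.val h1
  have hkerz : ∀ g, g ∈ α.ker ↔ g = 1 ∨ g = z := by
    intro g
    constructor
    · intro hg
      have hg1 := (hmemker g).mp hg
      have hgB := hC hg1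
      have h1 : ∀ y : Q8, e ⟨g, hgB⟩ * y = y * e ⟨g, hgB⟩ := by
        intro y
        obtain ⟨b, rfl⟩ := e.surjective y
        rw [← map_mul, ← map_mul]
        congr 1
        apply Subtype.ext
        exact (Subgroup.mem_centralizer_iff.mp hg1 b b.2).symm
      rcases q8_center _ h1 with h3 | h3
      · left
        have h4 : (⟨g, hgB⟩ : B) = 1 := e.map_eq_one_iff.mp h3
        exact congrArg Subtype.val h4
      · right
        have h4 : (⟨g, hgB⟩ : B) = zB := e.injective (h3.trans hez.symm)
        exact congrArg Subtype.val h4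
    · rintro (rfl | rfl)
      · exact one_mem _
      · exact (hmemker _).mpr hzcent
  have hkerzp : α.ker = zpowers z := by
    ext g
    rw [hkerz, mem_zpowers_of_sq hzz]
  have hcardz : Nat.card (zpowers z) = 2 := by
    rw [Nat.card_zpowers]
    apply orderOf_eq_prime
    · rw [pow_two, hzz]
    · exact hz1
  -- `z` is central
  have hzcen : ∀ g : X, g * z = z * g := by
    intro g
    have h1 : g * z * g⁻¹ ∈ α.ker := (MonoidHom.normal_ker α).conj_mem _ ((hkerz z).mpr (Or.inr rfl)) g
    rcases (hkerz _).mp h1 with h3 | h3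
    · exfalso
      apply hz1
      have h4 : g * z = g := by
        calc g * z = (g * z * g⁻¹) * g := by group
          _ = g := by rw [h3, one_mul]
      exact mul_eq_left.mp h4
    · calc g * z = (g * z * g⁻¹) * g := by group
        _ = z * g := by rw [h3]
  -- the order
  have hcardX : Nat.card X = 2 * Nat.card α.range := by
    have h1 := α.ker.card_mul_index
    rw [Subgroup.index_ker, hkerzp, hcardz] at h1
    exact h1.symm
  have hle48 : Nat.card X ≤ 48 := by
    have h1 : Nat.card α.range ≤ Nat.card (MulAut Q8) := Subgroup.card_le_card_group _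
    have h3 := card_aut_q8_le
    omega
  have h8 : 8 ∣ Nat.card X := by
    have h1 := Subgroup.card_subgroup_dvd_card B
    rwa [Nat.card_congr e.toEquiv, q8_card] at h1
  have hX0 : Nat.card X ≠ 0 := Nat.card_pos.ne'
  -- an element of order three
  have hy : ∃ y : X, orderOf y = 3 := by
    have h3 : ∃ q, q.Prime ∧ q ∣ Nat.card X ∧ q ≠ 2 := by
      by_contra hno
      push Not at hno
      apply h2
      apply IsPGroup.of_card (n := (Nat.card X).primeFactorsList.length)
      exact Nat.eq_prime_pow_of_unique_prime_dvd hX0 (fun {d} hd hdd => hno d hd hdd)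
    obtain ⟨q, hq, hqd, hq2⟩ := h3
    haveI : Fact q.Prime := ⟨hq⟩
    obtain ⟨y, hy⟩ := exists_prime_orderOf_dvd_card' (G := X) q hqd
    by_cases hq3 : q = 3
    · exact ⟨y, hq3 ▸ hy⟩
    · exfalso
      have h4 : α y ^ q = 1 := by
        rw [← map_pow, ← hy, pow_orderOf_eq_one, map_one]
      have h5 := aut_q8_prime (α y) hq hq2 hq3 h4
      rcases (hkerz y).mp h5 with h6 | h6
      · rw [h6, orderOf_one] at hy
        exact hq.one_lt.ne hy
      · have h7 : orderOf y ∣ 2 := orderOf_dvd_of_pow_eq_one (by rw [pow_two, h6, hzz])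
        rw [hy] at h7
        exact hq2 ((Nat.prime_dvd_prime_iff_eq hq Nat.prime_two).mp h7)
  obtain ⟨y, hy⟩ := hy
  have hy1 : y ∉ α.ker := by
    intro h
    rcases (hkerz y).mp h with h6 | h6
    · rw [h6, orderOf_one] at hy
      omega
    · have h7 : orderOf y ∣ 2 := orderOf_dvd_of_pow_eq_one (by rw [pow_two, h6, hzz])
      rw [hy] at h7
      omega
  have hy3 : y ^ 3 = 1 := by rw [← hy, pow_orderOf_eq_one]
  have hαy3 : α y ^ 3 = 1 := by rw [← map_pow, hy3, map_one]
  have h3X : 3 ∣ Nat.card X := by
    rw [← hy]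
    exact orderOf_dvd_natCard y
  have hcases : Nat.card X = 24 ∨ Nat.card X = 48 := by
    have h24 : 24 ∣ Nat.card X := by
      have : Nat.Coprime 8 3 := by norm_num
      exact this.mul_dvd_of_dvd_of_dvd h8 h3X
    obtain ⟨k, hk⟩ := h24
    have hk2 : k ≤ 2 := by omega
    interval_cases k
    · omega
    · left; omega
    · right; omega
  -- the Sylow 3-subgroup
  let P₀ : Subgroup X := zpowers y
  have hP₀card : Nat.card P₀ = 3 := by rw [Nat.card_zpowers, hy]
  have hP₀p : IsPGroup 3 P₀ := IsPGroup.of_card (n := 1) (by rw [hP₀card, pow_one])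
  have hP₀idx : ¬ 3 ∣ P₀.index := by
    have h1 := P₀.card_mul_index
    rw [hP₀card] at h1
    intro h3
    obtain ⟨k, hk⟩ := h3
    rw [hk] at h1
    omega
  let P : Sylow 3 X := hP₀p.toSylow hP₀idx
  have hPc : (P : Subgroup X) = P₀ := hP₀p.toSylow_coe hP₀idx
  let D : Subgroup X := normalizer (P₀ : Set X)
  have hDidx : D.index ≡ 1 [MOD 3] := by
    have h1 := card_sylow_modEq_one 3 X
    rw [P.card_eq_index_normalizer] at h1
    exact h1
  have hyD : P₀ ≤ D := Subgroup.le_normalizer
  have hzD : z ∈ D := by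
    rw [Subgroup.mem_normalizer_iff]
    intro h
    have h1 : z * h * z⁻¹ = h := by
      rw [← hzcen h]
      group
    rw [h1]
  have hB2 : Nat.card B = 8 := by
    rw [Nat.card_congr e.toEquiv, q8_card]
  have hP₀B : ∀ t, t ∈ P₀ → t ∈ B → t = 1 := by
    intro t h3 hB
    have h4 : orderOf t ∣ 3 := by
      have h5 := Subgroup.orderOf_dvd_natCard P₀ h3
      rwa [hP₀card] at h5
    have h5 : orderOf t ∣ 8 := by
      have h6 := Subgroup.orderOf_dvd_natCard B hB
      rwa [hB2] at h6
    have h6 : Nat.Coprime 3 8 := by norm_num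
    exact orderOf_eq_one_iff.mp (Nat.Coprime.eq_one_of_dvd (h6.coprime_dvd_left h4) h5)
  have hcomm : ∀ t, t ∈ B → t ∈ D → t * y = y * t := by
    intro t hB hD
    have h1 : t * y * t⁻¹ ∈ P₀ := (Subgroup.mem_normalizer_iff.mp hD y).mp (mem_zpowers y)
    have h3 : t * y * t⁻¹ * y⁻¹ ∈ P₀ := mul_mem h1 (inv_mem (mem_zpowers y))
    have h4 : t * y * t⁻¹ * y⁻¹ ∈ B := by
      have h5 : t * y * t⁻¹ * y⁻¹ = t * (y * t⁻¹ * y⁻¹) := by group
      rw [h5]
      exact mul_mem hB (hBn.conj_mem _ (inv_mem hB) y)
    have h5 := hP₀B _ h3 h4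
    calc t * y = (t * y * t⁻¹ * y⁻¹) * (y * t) := by group
      _ = y * t := by rw [h5, one_mul]
  have hBD : ∀ t, t ∈ B → t ∈ D → t = 1 ∨ t = z := by
    intro t hB hD
    by_cases h1 : e ⟨t, hB⟩ * e ⟨t, hB⟩ = 1
    · rcases q8_sq _ h1 with h3 | h3
      · left
        have h4 : (⟨t, hB⟩ : B) = 1 := e.map_eq_one_iff.mp h3
        exact congrArg Subtype.val h4
      · right
        have h4 : (⟨t, hB⟩ : B) = zB := e.injective (h3.trans hez.symm)
        exact congrArg Subtype.val h4
    · exfalso
      have h3 : α y (e ⟨t, hB⟩) = e ⟨t, hB⟩ := by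
        rw [hα]
        congr 1
        apply Subtype.ext
        rw [hαc]
        show y * t * y⁻¹ = t
        rw [← hcomm t hB hD]
        group
      have h4 := aut_q8_fix (α y) (by decide) hαy3 h1 h3
      exact hy1 h4
  have hDidx4 : D.index = 4 := by
    have hD6 : 6 ∣ Nat.card D := by
      have h1 : 3 ∣ Nat.card D := by
        have h3 := Subgroup.card_dvd_of_le hyD
        rwa [hP₀card] at h3
      have h3 : 2 ∣ Nat.card D := by
        have h4 : zpowers z ≤ D := by
          rw [Subgroup.zpowers_le]
          exact hzD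
        have h5 := Subgroup.card_dvd_of_le h4
        rwa [hcardz] at h5
      have h4 : Nat.Coprime 2 3 := by norm_num
      exact h4.mul_dvd_of_dvd_of_dvd h3 h1
    obtain ⟨k, hk⟩ := hD6
    have h1 := D.card_mul_index
    rw [hk] at h1
    have hidx8 : D.index ∣ 8 := by
      rcases hcases with h3 | h3
      · rw [h3] at h1
        have h4 : k * D.index = 4 := by nlinarith
        exact Dvd.dvd.trans ⟨k, by rw [← h4, mul_comm]⟩ (by norm_num : 4 ∣ 8)
      · rw [h3] at h1
        have h4 : k * D.index = 8 := by nlinarith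
        exact ⟨k, by rw [← h4, mul_comm]⟩
    have hne1 : D.index ≠ 1 := by
      intro h3
      have h4 : D = ⊤ := Subgroup.index_eq_one.mp h3
      apply hy1
      rw [hmemker, Subgroup.mem_centralizer_iff]
      intro b hb
      exact hcomm b hb (by rw [h4]; trivial)
    have h4 : D.index ∈ Nat.divisors 8 := Nat.mem_divisors.mpr ⟨hidx8, by norm_num⟩
    have h5 : Nat.divisors 8 = {1, 2, 4, 8} := by decide
    rw [h5] at h4
    simp only [Finset.mem_insert, Finset.mem_singleton] at h4
    rcases h4 with h6 | h6 | h6 | h6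
    · exact absurd h6 hne1
    · rw [h6] at hDidx
      exact absurd hDidx (by decide)
    · exact h6
    · rw [h6] at hDidx
      exact absurd hDidx (by decide)
  -- the normal core
  have hCrn : D.normalCore.Normal := Subgroup.normalCore_normal D
  have hCr2 : IsPGroup 2 D.normalCore := by
    intro c
    refine ⟨2, ?_⟩
    apply Subtype.ext
    have hc : (c : X) ∈ D.normalCore := c.2
    set g : X := (c : X) with hg
    show g ^ 2 ^ 2 = 1
    have hcc : g * g ∈ α.ker := by
      rw [hmemker, Subgroup.mem_centralizer_iff]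
      intro b hb
      have h1 : g * b * g⁻¹ * b⁻¹ ∈ D.normalCore := by
        have h3 : g * b * g⁻¹ * b⁻¹ = g * (b * g⁻¹ * b⁻¹) := by group
        rw [h3]
        exact mul_mem hc (hCrn.conj_mem _ (inv_mem hc) b)
      have h3 : g * b * g⁻¹ * b⁻¹ ∈ B :=
        mul_mem (hBn.conj_mem _ hb g) (inv_mem hb)
      have h4 : g * b * g⁻¹ = (g * b * g⁻¹ * b⁻¹) * b := by group
      set t := g * b * g⁻¹ * b⁻¹ with ht
      have h5 := hBD t h3 (Subgroup.normalCore_le D h1)
      have htt : t * t = 1 := by
        rcases h5 with h6 | h6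
        · rw [h6, one_mul]
        · rw [h6, hzz]
      have hgt : g * t * g⁻¹ = t := by
        rcases h5 with h6 | h6
        · rw [h6]
          group
        · rw [h6, hzcen g]
          group
      have h6 : (g * g) * b * (g * g)⁻¹ = b := by
        calc (g * g) * b * (g * g)⁻¹ = g * (g * b * g⁻¹) * g⁻¹ := by group
          _ = g * (t * b) * g⁻¹ := by rw [← h4]
          _ = (g * t * g⁻¹) * (g * b * g⁻¹) := by group
          _ = t * (t * b) := by rw [hgt, h4]
          _ = (t * t) * b := by group
          _ = b := by rw [htt, one_mul]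
      calc b * (g * g) = ((g * g) * b * (g * g)⁻¹) * (g * g) := by rw [h6]
        _ = (g * g) * b := by group
    have h1 : (g * g) * (g * g) = 1 := by
      rcases (hkerz _).mp hcc with h3 | h3
      · rw [h3, one_mul]
      · rw [h3, hzz]
    have h3 : g ^ 2 ^ 2 = (g * g) * (g * g) := by
      rw [show (2 : ℕ) ^ 2 = 4 by norm_num]
      simp only [pow_succ, pow_zero, one_mul, mul_assoc]
    rw [h3, h1]
  have hCrB : D.normalCore ≤ B := hO _ hCrn hCr2
  have hCrz : D.normalCore = zpowers z := by
    ext c
    rw [mem_zpowers_of_sq hzz]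
    constructor
    · intro hc
      exact hBD c (hCrB hc) (Subgroup.normalCore_le D hc)
    · rintro (rfl | rfl)
      · exact one_mem _
      · intro b
        have h1 : b * z * b⁻¹ = z := by
          rw [hzcen b]
          group
        show b * z * b⁻¹ ∈ D
        rw [h1]
        exact hzD
  -- the action
  have hcardq : Nat.card (X ⧸ D) = 4 := by
    rw [← Subgroup.index_eq_card]
    exact hDidx4
  let E : X ⧸ D ≃ Fin 4 := Finite.equivFinOfCardEq hcardq
  let φ : X →* Perm (Fin 4) := E.permCongrHom.toMonoidHom.comp (MulAction.toPermHom X (X ⧸ D))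
  have hφker : φ.ker = zpowers z := by
    rw [← hCrz, Subgroup.normalCore_eq_ker]
    ext g
    simp only [MonoidHom.mem_ker, φ, MonoidHom.comp_apply]
    exact E.permCongrHom.map_eq_one_iff
  refine ⟨φ, ?_, ?_⟩
  · rw [hφker]
    infer_instance
  · have h1 := φ.ker.card_mul_index
    rw [Subgroup.index_ker, hφker, hcardz] at h1
    have h3 := φ.range.card_mul_index
    have h24 : Nat.card (Perm (Fin 4)) = 24 := by
      rw [Nat.card_perm]
      simp [Nat.factorial]
    rw [h24] at h3
    rcases hcases with h4 | h4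
    · right
      have h5 : Nat.card φ.range = 12 := by omega
      rw [h5] at h3
      omega
    · left
      have h5 : Nat.card φ.range = 24 := by omega
      rw [h5] at h3
      omega

end Cfsg.Agent.Lib.Frobenius.Types
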