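import Mathlib
import Cfsg.Agent.Lib.Frobenius.Types.Nonsolv
import Cfsg.Agent.Lib.Frobenius.Types.Q8Struct
import Cfsg.Agent.Lib.Frobenius.Zass.Q8
import Cfsg.Agent.Lib.Basic.PCore
import Cfsg.Agent.Lib.Solvable.PSeries

/-!
# Existence in the solvable case
-/

set_option autoImplicit false
set_option linter.style.haveILetI false

namespace Cfsg.Agent.Lib.Frobenius.Types

open Subgroup Equiv Cfsg Cfsg.Agent.Lib.Frobenius.Zass
open Cfsg.Agent.Lib.Basic.PCore Cfsg.Agent.Lib.Solvable.PSeries

universe u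

/-- A group without nontrivial elements of odd order is a `2`-group. -/
theorem isPGroup_of_no_odd {X : Type*} [Group X] [Finite X]
    (h : ∀ y : X, Odd (orderOf y) → y = 1) : IsPGroup 2 X := by
  intro x
  have h0 : orderOf x ≠ 0 := (orderOf_pos x).ne'
  obtain ⟨k, m, hm, hkm⟩ := Nat.exists_eq_two_pow_mul_odd h0
  refine ⟨k, h _ ?_⟩
  have h1 : (x ^ 2 ^ k) ^ m = 1 := by
    rw [← pow_mul, ← hkm, pow_orderOf_eq_one]
  exact Odd.of_dvd_nat hm (orderOf_dvd_of_pow_eq_one h1)

variable {G : Type u} [Group G] [Finite G]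

section lift

variable {X : Type*} [Group X] {π : G →* X}

/-- `2`-subgroups inject when the kernel has odd order. -/
theorem inj_of_odd (hodd : (Nat.card π.ker).Coprime 2) (R : Subgroup G) (hR : IsPGroup 2 R) :
    Function.Injective (π.comp R.subtype) := by
  rw [injective_iff_map_eq_one]
  rintro ⟨x, hxR⟩ hx
  have hxk : x ∈ π.ker := hx
  apply Subtype.ext
  show x = 1
  have h1 : orderOf x ∣ Nat.card π.ker := Subgroup.orderOf_dvd_natCard _ hxk
  obtain ⟨k, hk⟩ := hR ⟨x, hxR⟩
  have hk' : x ^ 2 ^ k = 1 := congrArg Subtype.val hk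
  have h2 : orderOf x ∣ 2 ^ k := orderOf_dvd_of_pow_eq_one hk'
  have h3 : Nat.Coprime (Nat.card π.ker) (2 ^ k) := Nat.Coprime.pow_right _ hodd
  exact orderOf_eq_one_iff.mp (Nat.Coprime.eq_one_of_dvd (h3.coprime_dvd_left h1) h2)

/-- `2`-subgroups of the quotient act fixed point freely too. -/
theorem fpf_lift (hA : FpfAct G) (hπ : Function.Surjective π)
    (hodd : (Nat.card π.ker).Coprime 2) (R : Subgroup X) (hR : IsPGroup 2 R) : FpfAct R := by
  classical
  haveI : Fact (Nat.Prime 2) := ⟨Nat.prime_two⟩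
  let W : Subgroup G := R.comap π
  let g : W →* R := (π.comp W.subtype).codRestrict R (fun x => x.2)
  have hg : Function.Surjective g := by
    rintro ⟨y, hy⟩
    obtain ⟨x, rfl⟩ := hπ y
    exact ⟨⟨x, hy⟩, rfl⟩
  obtain ⟨P⟩ : Nonempty (Sylow 2 W) := inferInstance
  have h1 := map_sylow_eq_top hR hg P
  let R₁ : Subgroup G := (P : Subgroup W).map W.subtype
  have hR₁ : IsPGroup 2 R₁ :=
    P.isPGroup'.of_equiv ((P : Subgroup W).equivMapOfInjective W.subtype W.subtype_injective)
  have hmem : ∀ x : R₁, π x ∈ R := by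
    rintro ⟨_, ⟨x, -, rfl⟩⟩
    exact x.2
  let h : R₁ →* R := (π.comp R₁.subtype).codRestrict R hmem
  have hinj : Function.Injective h := by
    intro a b hab
    apply inj_of_odd hodd R₁ hR₁
    exact congrArg Subtype.val hab
  have hsurj : Function.Surjective h := by
    intro y
    have h2 : y ∈ (P : Subgroup W).map g := by rw [h1]; trivial
    obtain ⟨x, hx, rfl⟩ := h2
    exact ⟨⟨x, x, hx, rfl⟩, rfl⟩
  let E : R₁ ≃* R := MulEquiv.ofBijective h ⟨hinj, hsurj⟩
  exact (hA.subgroup R₁).of_injective E.symm.toMonoidHom E.symm.injective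

/-- Kernels of maps through an odd quotient with a cyclic kernel. -/
theorem cycSub_ker_comp (hA : FpfAct G) (hodd : (Nat.card π.ker).Coprime 2) {T : Type*} [Group T]
    (ψ : X →* T) (hψ : IsCyclic ψ.ker) : CycSub (ψ.comp π).ker := by
  intro p _ R hR hle
  rcases hA.sylow p R hR with h | ⟨rfl, -⟩
  · exact h
  · let h : R →* ψ.ker := (π.comp R.subtype).codRestrict ψ.ker (fun x => hle x.2)
    have hinj : Function.Injective h := by
      intro a b hab
      apply inj_of_odd hodd R hR
      exact congrArg Subtype.val hab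
    exact isCyclic_of_injective h hinj

end lift

theorem v4_r_sq : (DihedralGroup.r 1 : DihedralGroup 2) ^ 2 = 1 := by decide

/-- A surjection from a generalized quaternion group onto the Klein four group. -/
theorem exists_quat_v4 {n : ℕ} (hn : n ≠ 0) :
    ∃ q : QuaternionGroup (2 ^ n) →* DihedralGroup 2, Function.Surjective q := by
  haveI : NeZero (2 ^ n) := ⟨by positivity⟩
  have hpow : (DihedralGroup.r 1 : DihedralGroup 2) ^ 2 ^ n = 1 := by
    obtain ⟨k, rfl⟩ : ∃ k, n = k + 1 := ⟨n - 1, by omega⟩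
    rw [pow_succ', pow_mul, v4_r_sq, one_pow]
  let q := quatHom (2 ^ n) (DihedralGroup.r 1 : DihedralGroup 2) (DihedralGroup.sr 0)
    (by rw [mul_comm, pow_mul, hpow, one_pow]) (by rw [hpow]; decide) (by decide)
  refine ⟨q, ?_⟩
  haveI : Fact (1 < 2 * 2 ^ n) := ⟨by
    have : 0 < 2 ^ n := by positivity
    omega⟩
  have h1 : q (QuaternionGroup.a 1) = DihedralGroup.r 1 := by
    show (DihedralGroup.r 1 : DihedralGroup 2) ^ (1 : ZMod (2 * 2 ^ n)).val = _
    rw [ZMod.val_one, pow_one]
  have h2 : q (QuaternionGroup.xa 0) = DihedralGroup.sr 0 := by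
    show (DihedralGroup.sr 0 : DihedralGroup 2) * (DihedralGroup.r 1) ^ (0 : ZMod (2 * 2 ^ n)).val = _
    rw [ZMod.val_zero, pow_zero, mul_one]
  have h3 : ∀ y : DihedralGroup 2, y = 1 ∨ y = DihedralGroup.r 1 ∨ y = DihedralGroup.sr 0 ∨
      y = DihedralGroup.sr 0 * DihedralGroup.r 1 := by decide
  intro y
  rcases h3 y with rfl | rfl | rfl | rfl
  · exact ⟨1, map_one _⟩
  · exact ⟨_, h1⟩
  · exact ⟨_, h2⟩
  · exact ⟨QuaternionGroup.xa 0 * QuaternionGroup.a 1, by rw [map_mul, h1, h2]⟩

/-- **Existence** in the solvable case. -/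
theorem exists_adm_solvable (hA : FpfAct G) (hs : Group.IsSolvable G)
    (hZ : ¬ CycSub (⊤ : Subgroup G)) :
    ∃ N : Subgroup G, N.Normal ∧ CycSub N ∧ Admissible N := by
  classical
  haveI : Fact (Nat.Prime 2) := ⟨Nat.prime_two⟩
  let O : Subgroup G := pPrimeCore 2 G
  haveI hOn : O.Normal := pPrimeCore_normal 2 G
  let X : Type u := G ⧸ O
  let π : G →* X := QuotientGroup.mk' O
  have hπ : Function.Surjective π := QuotientGroup.mk'_surjective O
  have hπk : π.ker = O := QuotientGroup.ker_mk' O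
  have hodd : (Nat.card π.ker).Coprime 2 := by
    rw [hπk]
    exact pPrimeCore_coprime 2
  haveI : Finite X := inferInstanceAs (Finite (G ⧸ O))
  have hsX : Group.IsSolvable X := inferInstanceAs (Group.IsSolvable (G ⧸ O))
  -- if the quotient is cyclic then all Sylows of `G` are cyclic
  have hnocyc : ¬ IsCyclic X := by
    intro hc
    apply hZ
    have h1 := cycSub_ker_comp hA hodd (1 : X →* PUnit.{1}) (by
      have h2 : (1 : X →* PUnit.{1}).ker = ⊤ := MonoidHom.ker_one
      rw [h2]
      exact isCyclic_of_surjective _ (Subgroup.topEquiv (G := X)).symm.surjective)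
    have h3 : ((1 : X →* PUnit.{1}).comp π).ker = ⊤ := by
      ext g
      simp
    rwa [h3] at h1
  by_cases h2 : IsPGroup 2 X
  · -- the two-group case
    have hAX : FpfAct X := (fpf_lift hA hπ hodd ⊤ (IsPGroup.to_subgroup h2 ⊤)).of_injective
      (Subgroup.topEquiv (G := X)).symm.toMonoidHom (Subgroup.topEquiv (G := X)).symm.injective
    rcases hAX.sylow 2 ⊤ (IsPGroup.to_subgroup h2 ⊤) with h3 | ⟨-, n, ⟨e⟩⟩
    · exact absurd (isCyclic_of_surjective _ (Subgroup.topEquiv (G := X)).surjective) hnocyc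
    · let e' : X ≃* QuaternionGroup (2 ^ n) := (Subgroup.topEquiv (G := X)).symm.trans e
      have hn : n ≠ 0 := by
        rintro rfl
        haveI : IsCyclic (QuaternionGroup (2 ^ 0)) := QuaternionGroup.quaternionGroup_one_isCyclic
        exact hnocyc (isCyclic_of_surjective _ e'.symm.surjective)
      obtain ⟨q, hq⟩ := exists_quat_v4 hn
      let π' : G →* QuaternionGroup (2 ^ n) := e'.toMonoidHom.comp π
      have hπ'k : π'.ker = π.ker := by
        ext g
        simp only [MonoidHom.mem_ker, π', MonoidHom.comp_apply]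
        exact e'.map_eq_one_iff
      have hodd' : (Nat.card π'.ker).Coprime 2 := by rwa [hπ'k]
      have hqk : IsCyclic q.ker := by
        rw [quat_ker_eq q hq]
        infer_instance
      refine ⟨(q.comp π').ker, MonoidHom.normal_ker _, cycSub_ker_comp hA hodd' q hqk, ?_⟩
      exact Or.inr (Or.inl ⟨q.comp π', hq.comp (e'.surjective.comp hπ), rfl⟩)
  · -- the non-2-group case
    let B : Subgroup X := pCore 2 X
    haveI hBn : B.Normal := pCore_normal 2 X
    have hB2 : IsPGroup 2 B := pCore_isPGroup 2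
    have hC : centralizer (B : Set X) ≤ B :=
      centralizer_pCore_le isPSolvable_of_solvable (pPrimeCore_quotient 2)
    have hO : ∀ K : Subgroup X, K.Normal → IsPGroup 2 K → K ≤ B := fun K hK hK2 => le_pCore hK hK2
    have hAB := fpf_lift hA hπ hodd B hB2
    have hBtriv : ∀ y : X, MulAut.conjNormal (H := B) y = 1 → Odd (orderOf y) → y = 1 := by
      intro y hy hodd'
      have h1 : y ∈ centralizer (B : Set X) := by
        rw [Subgroup.mem_centralizer_iff]
        intro b hb
        have h3 := congrArg (fun φ : MulAut B => ((φ ⟨b, hb⟩ : B) : X)) hy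
        have h4 : y * b * y⁻¹ = b := by
          simpa [MulAut.conjNormal_apply] using h3
        calc b * y = (y * b * y⁻¹) * y := by rw [h4]
          _ = y * b := by group
      have hyB := hC h1
      obtain ⟨k, hk⟩ := hB2 ⟨y, hyB⟩
      have hk' : y ^ 2 ^ k = 1 := congrArg Subtype.val hk
      have h3 : orderOf y ∣ 2 ^ k := orderOf_dvd_of_pow_eq_one hk'
      have h4 : Nat.Coprime (orderOf y) (2 ^ k) :=
        Nat.Coprime.pow_right _ (Nat.coprime_two_right.mpr hodd')
      exact orderOf_eq_one_iff.mp (Nat.Coprime.eq_one_of_dvd h4 h3)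
    have hpow : ∀ y : X, (MulAut.conjNormal (H := B) y) ^ orderOf y = 1 := by
      intro y
      rw [← map_pow, pow_orderOf_eq_one, map_one]
    have hBtop : IsCyclic B ∨ ∃ n : ℕ, Nonempty (B ≃* QuaternionGroup (2 ^ n)) := by
      rcases hAB.sylow 2 ⊤ (IsPGroup.to_subgroup hB2 ⊤) with h3 | ⟨-, n, ⟨e⟩⟩
      · exact Or.inl (isCyclic_of_surjective _ (Subgroup.topEquiv (G := B)).surjective)
      · exact Or.inr ⟨n, ⟨(Subgroup.topEquiv (G := B)).symm.trans e⟩⟩
    rcases hBtop with hBc | ⟨n, ⟨e⟩⟩
    · exfalso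
      apply h2
      apply isPGroup_of_no_odd
      intro y hy
      exact hBtriv y (aut_cyclic_odd hB2 _ hy (hpow y)) hy
    · by_cases hn : n = 1
      · subst hn
        obtain ⟨φ, hφc, hφi⟩ := q8_structure B e hC hO h2
        have hrange : (φ.comp π).range = φ.range := by
          rw [MonoidHom.range_comp, MonoidHom.range_eq_top.mpr hπ, ← MonoidHom.range_eq_map]
        have hN := cycSub_ker_comp hA hodd φ hφc
        refine ⟨(φ.comp π).ker, MonoidHom.normal_ker _, hN, ?_⟩
        rcases surj_or_alt (φ.comp π) (by rwa [hrange]) with h3 | ⟨f, hf, hfk⟩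
        · exact Or.inr (Or.inr (Or.inr (Or.inl ⟨_, h3, rfl⟩)))
        · exact Or.inr (Or.inr (Or.inl ⟨f, hf, hfk⟩))
      · exfalso
        apply h2
        apply isPGroup_of_no_odd
        intro y hy
        apply hBtriv y _ hy
        have h3 : (MulAut.congr e) (MulAut.conjNormal (H := B) y) ^ orderOf y = 1 := by
          rw [← map_pow, hpow, map_one]
        have h4 := aut_quat_odd hn _ hy h3
        exact (MulAut.congr e).map_eq_one_iff.mp h4

/-- **Existence**. -/
theorem exists_adm (hA : FpfAct G) : ∃ N : Subgroup G, N.Normal ∧ CycSub N ∧ Admissible N := by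
  by_cases hZ : CycSub (⊤ : Subgroup G)
  · exact ⟨⊤, inferInstance, hZ, Or.inl rfl⟩
  by_cases hs : Group.IsSolvable G
  · exact exists_adm_solvable hA hs hZ
  · exact exists_adm_nonsolvable hA hs

end Cfsg.Agent.Lib.Frobenius.Types
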